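import Mathlib
import Cfsg.Agent.Lib.Classical.OrthAut.BalF
import Cfsg.Agent.Lib.Classical.OrthAut.GF6

/-!
# Involutory graph automorphisms of `PΩ^±_{2n}`: elements of the centraliser
-/

set_option autoImplicit false
set_option linter.unusedSectionVars false
set_option linter.unusedVariables false
set_option linter.unusedSimpArgs false
set_option linter.style.haveILetI false

namespace Cfsg.Agent.Lib.Classical.OrthAut.GrA

open Matrix QuadraticMap Module
open Cfsg.Agent.Lib.Classical.Orth.Basic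
open Cfsg.Agent.Lib.Classical.Orth.SimAut
open Cfsg.Agent.Lib.Classical.Orth.SimAut2
open Cfsg.Agent.Lib.Classical.Orth.Semi
open Cfsg.Agent.Lib.Classical.Orth.Spinor
open Cfsg.Agent.Lib.Classical.Orth.SimAutModels
open Cfsg.Agent.Lib.Classical.Witt.Hyp
open Cfsg.Agent.Lib.Classical.Witt.TS
open Cfsg.Agent.Lib.Classical.OrthAut.BalB
open Cfsg.Agent.Lib.Classical.OrthAut.BalC
open Cfsg.Agent.Lib.Classical.OrthAut.BalD
open Cfsg.Agent.Lib.Classical.OrthAut.BalE
open Cfsg.Agent.Lib.Classical.OrthAut.BalF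

universe u

section Disc

variable {F : Type*} [Field F] {V : Type*} [AddCommGroup V] [Module F V] [FiniteDimensional F V]

/-- A form of odd dimension has only similarities with square multiplier. -/
theorem sq_of_sim_odd (Q' : QuadraticForm F V) (hQ' : PolarNondeg Q') {μ : F} (f : V →ₗ[F] V)
    (hf : ∀ v, Q' (f v) = μ * Q' v) (hodd : Odd (finrank F V)) : IsSquare μ := by
  classical
  by_cases hμ : μ = 0
  · rw [hμ]
    exact IsSquare.zero
  set b := Module.finBasis F V with hb
  have hB : (polarBilin Q').compl₁₂ f f = μ • polarBilin Q' := by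
    ext x y
    simp only [LinearMap.compl₁₂_apply, polarBilin_apply_apply, LinearMap.smul_apply, smul_eq_mul, polar]
    rw [← map_add, hf, hf, hf]
    ring
  have h1 : LinearMap.BilinForm.toMatrix b ((polarBilin Q').compl₁₂ f f) =
      (LinearMap.toMatrix b b f)ᵀ * LinearMap.BilinForm.toMatrix b (polarBilin Q') * LinearMap.toMatrix b b f := by
    exact LinearMap.BilinForm.toMatrix_comp b b _ _ _
  rw [hB, map_smul] at h1
  have hnd : (polarBilin Q').Nondegenerate := nondeg_of_polarNondeg Q' hQ'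
  have h0 : (LinearMap.BilinForm.toMatrix b (polarBilin Q')).det ≠ 0 :=
    (LinearMap.BilinForm.nondegenerate_iff_det_ne_zero b).1 hnd
  have h3 := congrArg Matrix.det h1
  rw [Matrix.det_smul, Matrix.det_mul, Matrix.det_mul, Matrix.det_transpose, Fintype.card_fin] at h3
  have h4 : μ ^ finrank F V = (LinearMap.toMatrix b b f).det * (LinearMap.toMatrix b b f).det := by
    apply mul_right_cancel₀ h0
    linear_combination h3
  obtain ⟨k, hk⟩ := hodd
  refine ⟨(LinearMap.toMatrix b b f).det / μ ^ k, ?_⟩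
  have h5 : μ ^ finrank F V = μ ^ k * μ ^ k * μ := by
    rw [hk]
    ring
  rw [h5] at h4
  have h6 : μ ^ k ≠ 0 := pow_ne_zero _ hμ
  field_simp
  linear_combination h4

end Disc

variable {ι : Type} [Fintype ι] [DecidableEq ι] {F : Type u} [Field F] [Fintype F]
variable {Q : QuadraticForm F (ι → F)}

section Refl

/-- Similarities conjugate reflections to reflections. -/
theorem sim_reflection (g : SimG Q) (v : ι → F) (hv : Q v ≠ 0) (hw : Q ((g.1 : Matrix ι ι F) *ᵥ v) ≠ 0) :
    g * ofO (reflectionIso Q v hv) = ofO (reflectionIso Q ((g.1 : Matrix ι ι F) *ᵥ v) hw) * g := by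
  have hmg : (mult g : F) ≠ 0 := Units.ne_zero _
  apply Subtype.ext
  apply Units.ext
  apply Matrix.ext_of_mulVec_single
  intro j
  set y : ι → F := Pi.single j 1
  show ((g.1 : Matrix ι ι F) * Cfsg.reflectionMatrix (⇑Q) v) *ᵥ y =
    (Cfsg.reflectionMatrix (⇑Q) ((g.1 : Matrix ι ι F) *ᵥ v) * (g.1 : Matrix ι ι F)) *ᵥ y
  rw [← Matrix.mulVec_mulVec, ← Matrix.mulVec_mulVec, reflectionMatrix_mulVec, reflectionMatrix_mulVec,
    Matrix.mulVec_sub, Matrix.mulVec_smul, sim_polar (g := g.1) (mult_spec g), mult_spec g]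
  congr 2
  field_simp

theorem refl_congr {v w : ι → F} (h : v = w) (hv : Q v ≠ 0) (hw : Q w ≠ 0) :
    reflectionIso Q v hv = reflectionIso Q w hw := by
  subst h
  rfl

/-- A similarity commutes with the reflection in an eigenvector. -/
theorem comm_of_eig (g : SimG Q) {a : ι → F} (ha : Q a ≠ 0) {c : F} (hc : c ≠ 0)
    (hg : (g.1 : Matrix ι ι F) *ᵥ a = c • a) :
    g * ofO (reflectionIso Q a ha) = ofO (reflectionIso Q a ha) * g := by
  have hw : Q ((g.1 : Matrix ι ι F) *ᵥ a) ≠ 0 := by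
    rw [mult_spec]
    exact mul_ne_zero (Units.ne_zero _) ha
  rw [sim_reflection g a ha hw]
  congr 2
  have hw' : Q (c • a) ≠ 0 := by
    rw [← hg]
    exact hw
  rw [refl_congr hg hw hw']
  exact reflectionIso_smul Q c hc a ha hw'

/-- Reflections in orthogonal vectors commute. -/
theorem refl_comm {a b : ι → F} (ha : Q a ≠ 0) (hb : Q b ≠ 0) (hab : polar (⇑Q) a b = 0) :
    reflectionIso Q a ha * reflectionIso Q b hb = reflectionIso Q b hb * reflectionIso Q a ha := by
  have h1 := conj_reflectionIso (reflectionIso Q a ha) b hb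
  have h3 : act (reflectionIso Q a ha) b = b := by
    rw [reflectionIso_act, hab, mul_zero, zero_smul, sub_zero]
  have h4 : reflectionIso Q (act (reflectionIso Q a ha) b) (by rwa [Q_act]) = reflectionIso Q b hb :=
    refl_congr h3 _ _
  rw [h4] at h1
  rw [mul_inv_eq_iff_eq_mul] at h1
  exact h1

/-- The spinor norm of a product of two reflections. -/
theorem refl_mul_not_mem (hQ : (polarBilin Q).Nondegenerate) (h2 : (2 : F) ≠ 0) {a b : ι → F} (ha : Q a ≠ 0) (hb : Q b ≠ 0)
    (hab : ¬ IsSquare (Q a * Q b)) : reflectionIso Q a ha * reflectionIso Q b hb ∉ Cfsg.Omega F (⇑Q) := by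
  intro hmem
  have h1 := (mem_omega_iff_list Q hQ h2 [a, b] (by
    intro u hu
    simp only [List.mem_cons, List.not_mem_nil, or_false] at hu
    rcases hu with rfl | rfl
    · exact ha
    · exact hb) (reflectionIso Q a ha * reflectionIso Q b hb) (by
      show Cfsg.reflectionMatrix (⇑Q) a * Cfsg.reflectionMatrix (⇑Q) b = _
      simp)).1 hmem
  have h3 := h1.2
  simp only [List.map_cons, List.map_nil, List.prod_cons, List.prod_nil, mul_one] at h3
  exact hab h3

theorem refl_mul_mem (hQ : (polarBilin Q).Nondegenerate) (h2 : (2 : F) ≠ 0) {a b : ι → F} (ha : Q a ≠ 0) (hb : Q b ≠ 0)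
    (hab : IsSquare (Q a * Q b)) : reflectionIso Q a ha * reflectionIso Q b hb ∈ Cfsg.Omega F (⇑Q) := by
  rw [mem_omega_iff_list Q hQ h2 [a, b] (by
    intro u hu
    simp only [List.mem_cons, List.not_mem_nil, or_false] at hu
    rcases hu with rfl | rfl
    · exact ha
    · exact hb) (reflectionIso Q a ha * reflectionIso Q b hb) (by
      show Cfsg.reflectionMatrix (⇑Q) a * Cfsg.reflectionMatrix (⇑Q) b = _
      simp)]
  refine ⟨⟨1, rfl⟩, ?_⟩
  simp only [List.map_cons, List.map_nil, List.prod_cons, List.prod_nil, mul_one]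
  exact hab

theorem det_refl_mul {a b : ι → F} (ha : Q a ≠ 0) (hb : Q b ≠ 0) :
    (((reflectionIso Q a ha * reflectionIso Q b hb : ↥(Cfsg.isometryGroup F (⇑Q))).1 : GL ι F) : Matrix ι ι F).det = 1 := by
  show (Cfsg.reflectionMatrix (⇑Q) a * Cfsg.reflectionMatrix (⇑Q) b).det = 1
  rw [Matrix.det_mul, det_reflectionMatrix Q ha, det_reflectionMatrix Q hb]
  ring

end Refl

section Cases

/-- **The two types of graph involutions.** -/
theorem graph_cases (hQ : (polarBilin Q).Nondegenerate) (hn : 7 ≤ Fintype.card ι) (h2 : (2 : F) ≠ 0) {n : ℕ}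
    (hcard : Fintype.card ι = 2 * n) (g : SimG Q) (hgg : simHom (⇑Q) g * simHom (⇑Q) g = 1)
    (hdet : (g.1 : Matrix ι ι F).det ≠ (mult g : F) ^ n) :
    (∃ (u : Fˣ) (g₀ : ↥(Cfsg.isometryGroup F (⇑Q))), g = scalG u * ofO g₀ ∧ (∀ v, act g₀ (act g₀ v) = v) ∧
      Odd (finrank F ↥(eigS g₀ 1)) ∧ Odd (finrank F ↥(eigS g₀ (-1)))) ∨
    (∃ t : F, ¬ IsSquare t ∧ (∀ v, (g.1 : Matrix ι ι F) *ᵥ ((g.1 : Matrix ι ι F) *ᵥ v) = t • v) ∧ (mult g : F) = t ∧ Odd n) := by
  classical
  set M := (g.1 : Matrix ι ι F) with hM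
  have hι : Nonempty ι := Fintype.card_pos_iff.1 (by omega)
  have hker : g * g ∈ (simHom (⇑Q)).ker := by
    rw [MonoidHom.mem_ker, map_mul, hgg]
  rw [ker_simHom hQ (by omega), mem_ZG] at hker
  obtain ⟨t, ht⟩ := hker
  have hMM : ∀ v, M *ᵥ (M *ᵥ v) = (t : F) • v := by
    intro v
    rw [Matrix.mulVec_mulVec]
    have h1 : M * M = (t : F) • 1 := ht
    rw [h1, Matrix.smul_mulVec, Matrix.one_mulVec]
  have hμ : ∀ v, Q (M *ᵥ v) = (mult g : F) * Q v := mult_spec g
  set μ := (mult g : F) with hμdef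
  have hμ0 : μ ≠ 0 := Units.ne_zero _
  obtain ⟨v₀, hv₀⟩ := exists_ne_zero_value Q hQ hι
  have hμt : μ = t ∨ μ = -t := by
    have h1 := hμ (M *ᵥ v₀)
    rw [hMM, hμ, Q_smul] at h1
    have h3 : (μ * μ - t * t) * Q v₀ = 0 := by linear_combination -h1
    have h4 := sub_eq_zero.1 ((mul_eq_zero.1 h3).resolve_right hv₀)
    exact mul_self_eq_mul_self_iff.1 h4
  have ht0 : (t : F) ≠ 0 := t.ne_zero
  by_cases hsq : IsSquare (t : F)
  · -- the square case: reduce to an involution
    left
    obtain ⟨e, he⟩ := hsq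
    have he0 : e ≠ 0 := by
      rintro rfl
      apply ht0
      rw [he, mul_zero]
    set u : Fˣ := Units.mk0 e⁻¹ (inv_ne_zero he0) with hu
    set g₁ : SimG Q := scalG u * g with hg₁
    set M₁ : Matrix ι ι F := (g₁.1 : Matrix ι ι F) with hM₁
    have hM₁e : M₁ = e⁻¹ • M := by
      rw [Matrix.smul_eq_diagonal_mul]
      rfl
    have hM₁v : ∀ v, M₁ *ᵥ v = e⁻¹ • (M *ᵥ v) := fun v => by
      rw [hM₁e, Matrix.smul_mulVec]
    have hinv : ∀ v, M₁ *ᵥ (M₁ *ᵥ v) = v := by
      intro v
      rw [hM₁v, hM₁v, Matrix.mulVec_smul, hMM, smul_smul, smul_smul, he]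
      have : e⁻¹ * e⁻¹ * (e * e) = 1 := by
        field_simp
      rw [this, one_smul]
    have hdetM₁ : M.det = (e * e) ^ n * M₁.det := by
      rw [hM₁e, Matrix.det_smul, hcard, ← mul_assoc, pow_mul]
      have h1 : (e * e) ^ n * (e⁻¹ ^ 2) ^ n = 1 := by
        rw [← mul_pow]
        have : e * e * e⁻¹ ^ 2 = 1 := by
          field_simp
        rw [this, one_pow]
      rw [h1, one_mul]
    have hQM₁ : ∀ v, Q (M₁ *ᵥ v) = (e⁻¹ * e⁻¹ * μ) * Q v := by
      intro v
      rw [hM₁v, Q_smul, hμ]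
      ring
    have hfr := finrank_eigM hinv h2
    have hdet1 := det_eigM hinv h2
    rcases hμt with hμt | hμt
    · -- an isometric involution
      have hiso : ∀ v, Q (M₁ *ᵥ v) = Q v := by
        intro v
        rw [hQM₁, hμt, he]
        have : e⁻¹ * e⁻¹ * (e * e) = 1 := by
          field_simp
        rw [this, one_mul]
      let g₀ : ↥(Cfsg.isometryGroup F (⇑Q)) := ⟨g₁.1, (mem_isometryGroup_iff Q _).2 hiso⟩
      have hne1 : M₁.det ≠ 1 := by
        intro h
        apply hdet
        rw [hdetM₁, h, mul_one, hμt, he]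
      have hm : Odd (finrank F ↥(eigM M₁ (-1))) := by
        by_contra hcon
        rw [Nat.not_odd_iff_even] at hcon
        apply hne1
        rw [hdet1, hcon.neg_one_pow]
      have hp : Odd (finrank F ↥(eigM M₁ 1)) := by
        by_contra hcon
        rw [Nat.not_odd_iff_even] at hcon
        obtain ⟨a, ha⟩ := hcon
        obtain ⟨b, hb⟩ := hm
        omega
      refine ⟨u⁻¹, g₀, ?_, hinv, hp, hm⟩
      have h1 : ofO g₀ = g₁ := rfl
      rw [h1, hg₁, ← mul_assoc]
      rw [Cfsg.Agent.Lib.Classical.OrthAut.GF.scalG_mul, inv_mul_cancel, Cfsg.Agent.Lib.Classical.OrthAut.GF.scalG_one, one_mul]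
    · -- an anti-isometric involution: impossible
      exfalso
      have hanti : ∀ v, Q (M₁ *ᵥ v) = - Q v := by
        intro v
        rw [hQM₁, hμt, he]
        have : e⁻¹ * e⁻¹ * -(e * e) = -1 := by
          field_simp
        rw [this]
        ring
      have hnd := polarNondeg_of_nondeg Q hQ
      have hTS : ∀ ε : F, ε * ε = 1 → IsTS Q (eigM M₁ ε) := by
        intro ε hε w hw
        have h1 := hanti w
        rw [mem_eigM.1 hw, Q_smul, hε, one_mul] at h1
        have h3 : (2 : F) * Q w = 0 := by linear_combination h1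
        exact (mul_eq_zero.1 h3).resolve_left h2
      have h3 := IsTS.two_mul_finrank_le hnd (hTS 1 (by ring))
      have h4 := IsTS.two_mul_finrank_le hnd (hTS (-1) (by ring))
      rw [Module.finrank_fintype_fun_eq_card, hcard] at h3 h4
      have h5 : finrank F ↥(eigM M₁ (-1)) = n := by omega
      apply hdet
      rw [hdetM₁, hdet1, h5, hμt, he, ← mul_pow]
      congr 1
      ring
  · -- the non-square case
    right
    obtain ⟨K, iK, iA, iM, iT, θ, hθ, hθ2, hdec, hfin, hnorm⟩ := exists_K M hsq hMM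
    have hfin2 := Module.finrank_mul_finrank F K (ι → F)
    rw [hfin, Module.finrank_fintype_fun_eq_card, hcard] at hfin2
    have hn' : finrank K (ι → F) = n := by omega
    have hdetK := det_of_K hθ
    rw [hnorm, hn'] at hdetK
    rcases hμt with hμt | hμt
    · have hodd : Odd n := by
        by_contra hcon
        rw [Nat.not_odd_iff_even] at hcon
        apply hdet
        rw [hdetK, hcon.neg_pow, hμt]
      exact ⟨t, hsq, hMM, hμt, hodd⟩
    · exact absurd (by rw [hdetK, hμt]) hdet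

/-- Two vectors of a non-degenerate subspace with non-square product of norms. -/
theorem exists_pair_in (h2 : (2 : F) ≠ 0) {W : Submodule F (ι → F)} (hW : PolarNondeg (Q.comp W.subtype))
    (h3 : 3 ≤ finrank F ↥W) : ∃ a ∈ W, ∃ b ∈ W, ∃ (ha : Q a ≠ 0) (hb : Q b ≠ 0), ¬ IsSquare (Q a * Q b) := by
  obtain ⟨x, hx, hQx⟩ := exists_singular_of_three_le (Q.comp W.subtype) h3
  obtain ⟨y, hQy, hxy⟩ := exists_partner hW hx hQx
  have hν0 : nonsq h2 ≠ 0 := nonsq_ne_zero h2
  have hνs : ¬ IsSquare (nonsq h2) := nonsq_spec h2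
  have hQ1 : ∀ c : F, (Q.comp W.subtype) (x + c • y) = c := by
    intro c
    have h4 : (Q.comp W.subtype) (x + c • y) = (Q.comp W.subtype) x + (Q.comp W.subtype) (c • y) + polar (Q.comp W.subtype) x (c • y) := by
      simp only [polar]
      ring
    rw [h4, hQx, QuadraticMap.polar_smul_right, hxy, QuadraticMap.map_smul, hQy]
    simp
  refine ⟨(x + (1 : F) • y).1, (x + (1 : F) • y).2, (x + (nonsq h2) • y).1, (x + (nonsq h2) • y).2, ?_, ?_, ?_⟩
  · have := hQ1 1
    show (Q.comp W.subtype) (x + (1 : F) • y) ≠ 0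
    rw [this]
    exact one_ne_zero
  · have := hQ1 (nonsq h2)
    show (Q.comp W.subtype) (x + (nonsq h2) • y) ≠ 0
    rw [this]
    exact hν0
  · show ¬ IsSquare ((Q.comp W.subtype) (x + (1 : F) • y) * (Q.comp W.subtype) (x + (nonsq h2) • y))
    rw [hQ1, hQ1, one_mul]
    exact hνs

/-- **An element of `SO ∖ Ω`, up to scalars, centralising a graph involution.** -/
theorem exists_comm_pair (hQ : (polarBilin Q).Nondegenerate) (hn : 7 ≤ Fintype.card ι) (h2 : (2 : F) ≠ 0) {n : ℕ}
    (hcard : Fintype.card ι = 2 * n) (g : SimG Q) (hgg : simHom (⇑Q) g * simHom (⇑Q) g = 1)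
    (hdet : (g.1 : Matrix ι ι F).det ≠ (mult g : F) ^ n) :
    ∃ (a b : ι → F) (ha : Q a ≠ 0) (hb : Q b ≠ 0), ¬ IsSquare (Q a * Q b) ∧
      g * ofO (reflectionIso Q a ha * reflectionIso Q b hb) = ofO (reflectionIso Q a ha * reflectionIso Q b hb) * g := by
  classical
  rcases graph_cases hQ hn h2 hcard g hgg hdet with ⟨u, g₀, hg, hinv, hp, hm⟩ | ⟨t, hts, hMM, hμ, hodd⟩
  · -- the eigenspace
    have hfr := finrank_eig hinv h2
    have key : ∀ ε : F, ε * ε = 1 → 3 ≤ finrank F ↥(eigS g₀ ε) → ∃ (a b : ι → F) (ha : Q a ≠ 0) (hb : Q b ≠ 0), ¬ IsSquare (Q a * Q b) ∧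
      g * ofO (reflectionIso Q a ha * reflectionIso Q b hb) = ofO (reflectionIso Q a ha * reflectionIso Q b hb) * g := by
      intro ε hε h3
      have hε0 : ε ≠ 0 := by
        rintro rfl
        rw [mul_zero] at hε
        exact zero_ne_one hε
      obtain ⟨a, haW, b, hbW, ha, hb, hab⟩ := exists_pair_in h2 (nondeg_eig hinv hQ h2 hε) h3
      refine ⟨a, b, ha, hb, hab, ?_⟩
      have hvec : ∀ x ∈ eigS g₀ ε, (g.1 : Matrix ι ι F) *ᵥ x = ((u : F) * ε) • x := by
        intro x hx
        have h4 : (g.1 : Matrix ι ι F) = (u : F) • ((g₀.1 : GL ι F) : Matrix ι ι F) := by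
          rw [hg]
          change (((scalG u : SimG Q).1 : GL ι F) : Matrix ι ι F) * ((g₀.1 : GL ι F) : Matrix ι ι F) = _
          rw [Cfsg.Agent.Lib.Classical.OrthAut.FldConj.scalG_mat', smul_mul_assoc, one_mul]
        rw [h4, Matrix.smul_mulVec, mem_eigM.1 hx, smul_smul]
      have h0 : (u : F) * ε ≠ 0 := mul_ne_zero u.ne_zero hε0
      have h5 := comm_of_eig g ha h0 (hvec a haW)
      have h6 := comm_of_eig g hb h0 (hvec b hbW)
      rw [ofO_mul, ← mul_assoc, h5, mul_assoc, h6, mul_assoc]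
    by_cases h3 : 3 ≤ finrank F ↥(eigS g₀ 1)
    · exact key 1 (by ring) h3
    · apply key (-1) (by ring)
      omega
  · -- the non-square case
    have ht0 : t ≠ 0 := by
      rintro rfl
      exact hts IsSquare.zero
    set M := (g.1 : Matrix ι ι F) with hM
    have hmult : ∀ v, Q (M *ᵥ v) = t * Q v := by
      intro v
      rw [← hμ]
      exact mult_spec g v
    obtain ⟨K, iK, iA, iM, iT, θ, hθ, hθ2, hdec, hfin, hnorm⟩ := exists_K M hts hMM
    have hfin2 := Module.finrank_mul_finrank F K (ι → F)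
    rw [hfin, Module.finrank_fintype_fun_eq_card, hcard] at hfin2
    have hn' : finrank K (ι → F) = n := by omega
    haveI hfinK : Finite K := Finite.of_surjective (fun p : F × F => algebraMap F K p.1 + algebraMap F K p.2 * θ) (fun k => by
      obtain ⟨u, u', rfl⟩ := hdec k
      exact ⟨(u, u'), rfl⟩)
    haveI : FiniteDimensional K (ι → F) := Module.Finite.of_finite
    obtain ⟨Qk, hpk, hQk⟩ := exists_Qk (K := K) (Q := Q) (M := M) (c := t) (θ := θ) hθ h2 ht0 hθ2 hdec hMM hmult
    have hzero : ∀ {x y : F}, algebraMap F K x + algebraMap F K y * θ = 0 → x = 0 ∧ y = 0 := by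
      intro x y h
      apply coord_unique hts hθ2
      rw [h]
      simp
    have hnd : PolarNondeg Qk := by
      intro w hw
      apply polarNondeg_of_nondeg Q hQ
      intro z
      have h1 := hw z
      rw [hpk] at h1
      exact (hzero h1).1
    obtain ⟨x, hx, hQx⟩ := exists_singular_of_three_le Qk (by omega)
    obtain ⟨y, hQy, hxy⟩ := exists_partner hnd hx hQx
    set v := x + y with hv
    have hQkv : Qk v = 1 := by
      have h4 : Qk (x + y) = Qk x + Qk y + polar Qk x y := by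
        simp only [polar]
        ring
      rw [hv, h4, hQx, hQy, hxy]
      ring
    have hco : algebraMap F K (Q v) + algebraMap F K ((2 * t)⁻¹ * polar (⇑Q) (M *ᵥ v) v) * θ = algebraMap F K 1 + algebraMap F K 0 * θ := by
      rw [← hQk, hQkv]
      simp
    obtain ⟨h1, h3⟩ := coord_unique hts hθ2 hco
    have h2t : (2 * t)⁻¹ ≠ 0 := inv_ne_zero (mul_ne_zero h2 ht0)
    have hpol : polar (⇑Q) (M *ᵥ v) v = 0 := (mul_eq_zero.1 h3).resolve_left h2t
    have ha : Q v ≠ 0 := by
      rw [h1]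
      exact one_ne_zero
    have hb : Q (M *ᵥ v) ≠ 0 := by
      rw [hmult, h1, mul_one]
      exact ht0
    refine ⟨v, M *ᵥ v, ha, hb, ?_, ?_⟩
    · rw [hmult, h1, one_mul, mul_one]
      exact hts
    · have hcomm : reflectionIso Q v ha * reflectionIso Q (M *ᵥ v) hb = reflectionIso Q (M *ᵥ v) hb * reflectionIso Q v ha :=
        refl_comm ha hb (by rw [polar_comm]; exact hpol)
      have h5 := sim_reflection g v ha hb
      have h6 : g * ofO (reflectionIso Q (M *ᵥ v) hb) = ofO (reflectionIso Q v ha) * g := by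
        have hw : Q (M *ᵥ (M *ᵥ v)) ≠ 0 := by
          rw [hmult, hmult, h1]
          simpa using ht0
        have h7 := sim_reflection g (M *ᵥ v) hb hw
        rw [h7]
        congr 2
        have hw' : Q (t • v) ≠ 0 := by
          rw [← hMM]
          exact hw
        rw [refl_congr (hMM v) hw hw']
        exact reflectionIso_smul Q t ht0 v ha hw'
      have e : ofO (reflectionIso Q v ha * reflectionIso Q (M *ᵥ v) hb) = ofO (reflectionIso Q v ha) * ofO (reflectionIso Q (M *ᵥ v) hb) := rfl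
      have e' : ofO (reflectionIso Q (M *ᵥ v) hb) * ofO (reflectionIso Q v ha) = ofO (reflectionIso Q v ha) * ofO (reflectionIso Q (M *ᵥ v) hb) := by
        rw [← ofO_mul, ← ofO_mul, hcomm]
      rw [e, ← mul_assoc, h5, mul_assoc, h6, ← mul_assoc, e', mul_assoc]

end Cases

section Even

/-- **With `n` even, a similarity with a non-square multiplier does not centralise a graph involution.** -/
theorem not_comm_of_even (hQ : (polarBilin Q).Nondegenerate) (hn : 7 ≤ Fintype.card ι) (h2 : (2 : F) ≠ 0) {n : ℕ}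
    (hcard : Fintype.card ι = 2 * n) (hev : Even n) (g : SimG Q) (hgg : simHom (⇑Q) g * simHom (⇑Q) g = 1)
    (hdet : (g.1 : Matrix ι ι F).det ≠ (mult g : F) ^ n) (a : SimG Q) (ha : ¬ IsSquare (mult a : F))
    (hc : simHom (⇑Q) g * simHom (⇑Q) a = simHom (⇑Q) a * simHom (⇑Q) g) : False := by
  classical
  have hι : Nonempty ι := Fintype.card_pos_iff.1 (by omega)
  rcases graph_cases hQ hn h2 hcard g hgg hdet with ⟨u, g₀, hg, hinv, hp, hm⟩ | ⟨t, hts, hMM, hμ, hodd⟩
  swap
  · exact (Nat.not_even_iff_odd.2 hodd) hev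
  have hz1 : simHom (⇑Q) (scalG u) = 1 := by
    have h4 : scalG u ∈ (simHom (⇑Q)).ker := by
      rw [ker_simHom hQ (by omega)]
      exact Cfsg.Agent.Lib.Classical.OrthAut.FldConj.scalG_mem' u
    exact h4
  have hg' : simHom (⇑Q) g = simHom (⇑Q) (ofO g₀) := by
    rw [hg, map_mul, hz1, one_mul]
  rw [hg'] at hc
  -- the commutator is a scalar
  have hker : a * ofO g₀ * a⁻¹ * (ofO g₀)⁻¹ ∈ (simHom (⇑Q)).ker := by
    rw [MonoidHom.mem_ker, map_mul, map_mul, map_mul, map_inv, map_inv, ← hc]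
    group
  rw [ker_simHom hQ (by omega), mem_ZG] at hker
  obtain ⟨t, ht⟩ := hker
  set A := (a.1 : Matrix ι ι F) with hA
  set G := ((g₀.1 : GL ι F) : Matrix ι ι F) with hG
  have hinv' : ∀ v, G *ᵥ (G *ᵥ v) = v := hinv
  have hAG : A * G = (t : F) • (G * A) := by
    have h1 : a * ofO g₀ = (a * ofO g₀ * a⁻¹ * (ofO g₀)⁻¹) * (ofO g₀ * a) := by group
    have h3 : ((a * ofO g₀ : SimG Q).1 : Matrix ι ι F) = ((a * ofO g₀ * a⁻¹ * (ofO g₀)⁻¹ * (ofO g₀ * a) : SimG Q).1 : Matrix ι ι F) :=
      congrArg (fun x : SimG Q => (x.1 : Matrix ι ι F)) h1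
    have e : ((a * ofO g₀ * a⁻¹ * (ofO g₀)⁻¹ * (ofO g₀ * a) : SimG Q).1 : Matrix ι ι F) =
        ((a * ofO g₀ * a⁻¹ * (ofO g₀)⁻¹ : SimG Q).1 : Matrix ι ι F) * ((ofO g₀ * a : SimG Q).1 : Matrix ι ι F) := rfl
    rw [e, ht, smul_mul_assoc, one_mul] at h3
    exact h3
  have hAGv : ∀ v, A *ᵥ (G *ᵥ v) = (t : F) • (G *ᵥ (A *ᵥ v)) := by
    intro v
    rw [Matrix.mulVec_mulVec, hAG, Matrix.smul_mulVec, Matrix.mulVec_mulVec]
  have hAinj : Function.Injective (fun v => A *ᵥ v) :=
    Matrix.mulVec_injective_iff_isUnit.2 (by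
      rw [hA]
      exact (a.1).isUnit)
  have htt : (t : F) * t = 1 := by
    obtain ⟨v, hv⟩ : ∃ v : ι → F, v ≠ 0 := by
      haveI := hι
      exact exists_ne 0
    have h1 := hAGv (G *ᵥ v)
    rw [hinv', hAGv, Matrix.mulVec_smul, hinv', smul_smul] at h1
    have h3 : A *ᵥ v ≠ 0 := by
      intro h
      apply hv
      apply hAinj
      show A *ᵥ v = A *ᵥ 0
      rw [h, Matrix.mulVec_zero]
    have h4 : ((t : F) * t - 1) • (A *ᵥ v) = 0 := by
      rw [sub_smul, one_smul, ← h1, sub_self]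
    exact sub_eq_zero.1 ((smul_eq_zero.1 h4).resolve_right h3)
  have hfr := finrank_eig hinv h2
  rcases mul_self_eq_one_iff.1 htt with ht1 | ht1
  · -- `a` preserves the eigenspaces
    apply ha
    have hpres : ∀ v ∈ eigS g₀ 1, A *ᵥ v ∈ eigS g₀ 1 := by
      intro v hv
      rw [mem_eigM]
      have h1 := hAGv v
      rw [mem_eigM.1 hv, one_smul, ht1, one_smul] at h1
      rw [one_smul]
      exact h1.symm
    let f : ↥(eigS g₀ 1) →ₗ[F] ↥(eigS g₀ 1) := (Matrix.toLin' A).restrict hpres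
    refine sq_of_sim_odd (Q.comp (eigS g₀ 1).subtype) (nondeg_eig hinv hQ h2 (by ring)) f ?_ hp
    intro v
    exact mult_spec a v.1
  · -- `a` swaps the eigenspaces
    have hs1 : ∀ v ∈ eigS g₀ 1, A *ᵥ v ∈ eigS g₀ (-1) := by
      intro v hv
      rw [mem_eigM]
      have h1 := hAGv v
      rw [mem_eigM.1 hv, one_smul, ht1, neg_smul, one_smul] at h1
      rw [neg_smul, one_smul]
      conv_rhs => rw [h1]
      rw [neg_neg]
    have hs2 : ∀ v ∈ eigS g₀ (-1), A *ᵥ v ∈ eigS g₀ 1 := by
      intro v hv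
      rw [mem_eigM]
      have h1 := hAGv v
      rw [mem_eigM.1 hv, Matrix.mulVec_smul, ht1, neg_smul, one_smul, neg_smul, one_smul] at h1
      rw [one_smul]
      exact (neg_inj.1 h1).symm
    have hle1 : finrank F ↥(eigS g₀ 1) ≤ finrank F ↥(eigS g₀ (-1)) := by
      apply LinearMap.finrank_le_finrank_of_injective (f := (Matrix.toLin' A).restrict hs1)
      intro x y hxy
      apply Subtype.ext
      apply hAinj
      exact congrArg Subtype.val hxy
    have hle2 : finrank F ↥(eigS g₀ (-1)) ≤ finrank F ↥(eigS g₀ 1) := by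
      apply LinearMap.finrank_le_finrank_of_injective (f := (Matrix.toLin' A).restrict hs2)
      intro x y hxy
      apply Subtype.ext
      apply hAinj
      exact congrArg Subtype.val hxy
    have h5 : finrank F ↥(eigS g₀ 1) = n := by omega
    rw [h5] at hp
    exact (Nat.not_even_iff_odd.2 hp) hev

end Even

end Cfsg.Agent.Lib.Classical.OrthAut.GrA
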