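import Mathlib
import Cfsg.Agent.Lib.Classical.OrthAut.GrA
import Cfsg.Agent.Lib.Classical.OrthAut.BalG

/-!
# Involutory graph automorphisms of `PΩ^±_{2n}`: the class counts
-/

set_option autoImplicit false
set_option linter.unusedSectionVars false
set_option linter.unusedVariables false
set_option linter.unusedSimpArgs false
set_option linter.style.haveILetI false

namespace Cfsg.Agent.Lib.Classical.OrthAut.GrB

open Matrix QuadraticMap Module
open Cfsg.Agent.Lib.Classical.Orth.Basic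
open Cfsg.Agent.Lib.Classical.Orth.Models
open Cfsg.Agent.Lib.Classical.Orth.SimAut
open Cfsg.Agent.Lib.Classical.Orth.SimAut2
open Cfsg.Agent.Lib.Classical.Orth.SimAut4
open Cfsg.Agent.Lib.Classical.Orth.SimAutModels
open Cfsg.Agent.Lib.Classical.Orth.Semi
open Cfsg.Agent.Lib.Classical.Orth.Spinor
open Cfsg.Agent.Lib.Classical.OrthAut.BalD
open Cfsg.Agent.Lib.Classical.OrthAut.GF
open Cfsg.Agent.Lib.Classical.OrthAut.GrA
open Cfsg.Agent.Lib.Classical.Orth.Semi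

section Abs

variable {X D' : Type*} [Group X] [Group D']

theorem comm_of_two (N : Subgroup D') [N.Normal] (hcard : Nat.card (D' ⧸ N) = 2) (a b : D' ⧸ N) : a * b = b * a := by
  haveI : Fact (Nat.Prime 2) := ⟨Nat.prime_two⟩
  haveI : IsCyclic (D' ⧸ N) := isCyclic_of_prime_card hcard
  exact (IsCyclic.commGroup (α := D' ⧸ N)).mul_comm a b

/-- All of the centraliser in the kernel, with a quotient of order two. -/
theorem count_two_of_card (δ : D' →* X) (N : Subgroup D') [N.Normal] (hcard : Nat.card (D' ⧸ N) = 2)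
    (H K : Subgroup X) (hH : H = δ.range) (hK1 : ∀ κ ∈ K, ∃ s ∈ N, κ = δ s) (hK2 : ∀ s ∈ N, δ s ∈ K) (x : X)
    (hall : ∀ g, x * δ g = δ g * x → g ∈ N) : Cfsg.splitClassCount H K x = 2 := by
  rw [split_count_quot δ N (comm_of_two N hcard) H K hH hK1 hK2 x ⊥, Subgroup.index_bot, hcard]
  · intro g hg
    rw [Subgroup.mem_bot, QuotientGroup.eq_one_iff]
    exact hall g hg
  · intro w hw
    rw [Subgroup.mem_bot] at hw
    subst hw
    exact ⟨1, by simp, rfl⟩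

/-- The number of classes when the quotient has order two. -/
theorem count_le_two_of_card (δ : D' →* X) (N : Subgroup D') [N.Normal] (hcard : Nat.card (D' ⧸ N) = 2)
    (H K : Subgroup X) (hH : H = δ.range) (hK1 : ∀ κ ∈ K, ∃ s ∈ N, κ = δ s) (hK2 : ∀ s ∈ N, δ s ∈ K) (x : X) :
    Cfsg.splitClassCount H K x = 1 ∨ Cfsg.splitClassCount H K x = 2 := by
  classical
  set W : Subgroup (D' ⧸ N) := ((Subgroup.centralizer {x}).comap δ).map (QuotientGroup.mk' N) with hW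
  have hcomm : ∀ g, g ∈ (Subgroup.centralizer {x}).comap δ ↔ x * δ g = δ g * x := by
    intro g
    rw [Subgroup.mem_comap, Subgroup.mem_centralizer_iff]
    constructor
    · intro h
      exact h x rfl
    · rintro h _ rfl
      exact h
  have hc : Cfsg.splitClassCount H K x = W.index := by
    apply split_count_quot δ N (comm_of_two N hcard) H K hH hK1 hK2 x W
    · intro g hg
      exact ⟨g, (hcomm g).2 hg, rfl⟩
    · rintro _ ⟨g, hg, rfl⟩
      exact ⟨g, (hcomm g).1 hg, rfl⟩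
  rw [hc]
  have h1 := Subgroup.index_dvd_card W
  rw [hcard] at h1
  rcases (Nat.dvd_prime Nat.prime_two).1 h1 with h | h
  · exact Or.inl h
  · exact Or.inr h

theorem comm_mem (N : Subgroup D') [N.Normal] (h : ∀ a b : D' ⧸ N, a * b = b * a) (a b : D') : a * b * a⁻¹ * b⁻¹ ∈ N := by
  rw [← QuotientGroup.eq_one_iff]
  have e : ((a * b * a⁻¹ * b⁻¹ : D') : D' ⧸ N) = (a : D' ⧸ N) * (b : D' ⧸ N) * (a : D' ⧸ N)⁻¹ * (b : D' ⧸ N)⁻¹ := rfl
  rw [e, h a b]
  group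

end Abs

section Data

universe u

variable {ι : Type} [Fintype ι] [DecidableEq ι] {F : Type u} [Field F] [Fintype F]
variable {Q : QuadraticForm F (ι → F)} {M : ℕ} (D : Data Q M)

/-- The inner-diagonal group as a range. -/
noncomputable abbrev dH : ↥D.H₂ →* MulAut (Cfsg.POmega F (⇑Q)) := (simHom (⇑Q)).comp D.H₂.subtype

theorem dH_range : D.H₂.map (simHom (⇑Q)) = (dH D).range := by
  rw [MonoidHom.range_comp, Subgroup.range_subtype]

theorem dH_K1 : ∀ κ ∈ Cfsg.Inn (Cfsg.POmega F (⇑Q)), ∃ s ∈ (Nn Q).subgroupOf D.H₂, κ = dH D s := by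
  intro κ hκ'
  rw [inn_eq] at hκ'
  obtain ⟨a, ha, rfl⟩ := hκ'
  have ha' : a ∈ Nn Q := Subgroup.mem_sup_left ha
  exact ⟨⟨a, D.Nn_le_H₂ ha'⟩, ha', rfl⟩

theorem dH_K2 : ∀ s ∈ (Nn Q).subgroupOf D.H₂, dH D s ∈ Cfsg.Inn (Cfsg.POmega F (⇑Q)) := by
  intro s hs
  rw [Subgroup.mem_subgroupOf] at hs
  haveI := D.ZG_normal
  obtain ⟨a, ha, z, hz, e⟩ := Subgroup.mem_sup_of_normal_right.1 hs
  rw [inn_eq]
  refine ⟨a, ha, ?_⟩
  have hz1 : simHom (⇑Q) z = 1 := by
    have : z ∈ (simHom (⇑Q)).ker := by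
      rw [D.ker_eq]
      exact hz
    exact this
  change simHom (⇑Q) a = simHom (⇑Q) s.1
  rw [← e, map_mul, hz1, mul_one]

theorem sgn2_refl (v : ι → F) (hv : Q v ≠ 0) : D.sgn2 (ofO (reflectionIso Q v hv)) = -1 := by
  rcases Int.units_eq_one_or (D.sgn2 (ofO (reflectionIso Q v hv))) with h | h
  · exfalso
    rw [D.sgn2_eq_one_iff, D.ratio_ofO_eq_one_iff] at h
    have h1 : ((reflectionIso Q v hv).1.1).det = -1 := by
      change (Cfsg.reflectionMatrix (⇑Q) v).det = -1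
      exact det_reflectionMatrix _ hv
    rw [h1] at h
    apply D.h2
    linear_combination -h
  · exact h

/-- Elements of non-square multiplier do not commute with an element outside of `H₂`, modulo `Ω`. -/
theorem not_comm_sgn (hneg : (negO : ↥(Cfsg.isometryGroup F (⇑Q))) ∈ Cfsg.Omega F (⇑Q)) {a g : SimG Q}
    (haH : a ∈ D.H₂) (ha : ¬ IsSquare (mult a : F)) (hg : D.sgn2 g ≠ 1) : a * g * a⁻¹ * g⁻¹ ∉ Nn Q := by
  classical
  haveI hnor := D.Nn_normal
  intro hmem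
  obtain ⟨v, hv⟩ := D.exists_v₀
  have hw : Q ((a.1 : Matrix ι ι F) *ᵥ v) ≠ 0 := by
    rw [mult_spec]
    exact mul_ne_zero (Units.ne_zero _) hv
  set r := ofO (reflectionIso Q v hv) with hr
  set r' := ofO (reflectionIso Q ((a.1 : Matrix ι ι F) *ᵥ v) hw) with hr'
  have hrr : r * r = 1 := by
    rw [hr, ← ofO_mul, reflectionIso_mul_self]
    rfl
  have hrinv : r⁻¹ = r := inv_eq_of_mul_eq_one_left hrr
  have hg' : D.sgn2 g = -1 := (Int.units_eq_one_or _).resolve_left hg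
  have hbH : r * g ∈ D.H₂ := by
    rw [MonoidHom.mem_ker, map_mul, sgn2_refl, hg']
    rfl
  have hcard := D.card_H₂_of_mem hneg
  have hc := comm_mem ((Nn Q).subgroupOf D.H₂) (comm_of_four _ hcard) (⟨a, haH⟩ : ↥D.H₂) ⟨r * g, hbH⟩
  rw [Subgroup.mem_subgroupOf] at hc
  have hc' : a * (r * g) * a⁻¹ * (r * g)⁻¹ ∈ Nn Q := hc
  have har : a * r = r' * a := sim_reflection a v hv hw
  have hr'r' : r' * r' = 1 := by
    rw [hr', ← ofO_mul, reflectionIso_mul_self]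
    rfl
  have hr'inv : r'⁻¹ = r' := inv_eq_of_mul_eq_one_left hr'r'
  have e : a * g * a⁻¹ * g⁻¹ = r'⁻¹ * r * (r⁻¹ * (a * (r * g) * a⁻¹ * (r * g)⁻¹) * r) := by
    have e1 : a * (r * g) = r' * a * g := by
      rw [← mul_assoc, har]
    rw [e1]
    group
  have h4 : r⁻¹ * (a * (r * g) * a⁻¹ * (r * g)⁻¹) * r ∈ Nn Q := by
    have h5 := hnor.conj_mem _ hc' r⁻¹
    rwa [inv_inv] at h5
  rw [e] at hmem
  have h3 := (Subgroup.mul_mem_cancel_right _ h4).1 hmem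
  rw [hr'inv, hr', hr, ← ofO_mul, D.ofO_mem_Nn_of_neg hneg] at h3
  refine refl_mul_not_mem D.hQ D.h2 hw hv ?_ h3
  rw [mult_spec]
  intro hs
  apply ha
  have h5 : (mult a : F) = ((mult a : F) * Q v * Q v) / (Q v * Q v) := by
    field_simp
  rw [h5]
  exact hs.div (IsSquare.mul_self (Q v))

/-- **The graph involutions when `-1 ∈ Ω`.** -/
theorem count_of_neg (hn7 : 7 ≤ Fintype.card ι) (hneg : (negO : ↥(Cfsg.isometryGroup F (⇑Q))) ∈ Cfsg.Omega F (⇑Q))
    (g : SimG Q) (hg : D.sgn2 g ≠ 1) (hgg : simHom (⇑Q) g * simHom (⇑Q) g = 1) :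
    Cfsg.splitClassCount (D.H₂.map (simHom (⇑Q))) (Cfsg.Inn (Cfsg.POmega F (⇑Q))) (simHom (⇑Q) g) = 2 := by
  classical
  haveI hnor := D.Nn_normal
  haveI hZn := D.ZG_normal
  have hdet : (g.1 : Matrix ι ι F).det ≠ (mult g : F) ^ M := by
    intro h
    apply hg
    rw [D.sgn2_eq_one_iff, D.ratio_eq_one_iff]
    exact h
  obtain ⟨a, b, ha, hb, hab, hc⟩ := exists_comm_pair D.hQ hn7 D.h2 D.hM g hgg hdet
  set s := reflectionIso Q a ha * reflectionIso Q b hb with hs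
  have hsΩ : s ∉ Cfsg.Omega F (⇑Q) := refl_mul_not_mem D.hQ D.h2 ha hb hab
  have hsdet : ((s.1 : GL ι F) : Matrix ι ι F).det = 1 := det_refl_mul ha hb
  have hsH : ofO s ∈ D.H₂ := by
    rw [MonoidHom.mem_ker, D.sgn2_eq_one_iff, D.ratio_ofO_eq_one_iff]
    exact hsdet
  have hsS : spinorSign Q D.h2 s = -1 :=
    (Int.units_eq_one_or _).resolve_left fun h => hsΩ ((D.so_mem_omega _ hsdet).2 h)
  apply count_two (dH D) ((Nn Q).subgroupOf D.H₂) (D.card_H₂_of_mem hneg) _ _ (dH_range D) (dH_K1 D) (dH_K2 D) (simHom (⇑Q) g) ⟨ofO s, hsH⟩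
  · change simHom (⇑Q) g * simHom (⇑Q) (ofO s) = simHom (⇑Q) (ofO s) * simHom (⇑Q) g
    rw [← map_mul, ← map_mul, hc]
  · rw [Subgroup.mem_subgroupOf]
    change ofO s ∉ Nn Q
    rw [D.ofO_mem_Nn_of_neg hneg]
    exact hsΩ
  · intro u hu
    change simHom (⇑Q) g * simHom (⇑Q) u.1 = simHom (⇑Q) u.1 * simHom (⇑Q) g at hu
    have hker : u.1 * g * u.1⁻¹ * g⁻¹ ∈ (simHom (⇑Q)).ker := by
      rw [MonoidHom.mem_ker, map_mul, map_mul, map_mul, map_inv, map_inv, ← hu]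
      group
    rw [D.ker_eq] at hker
    have hsq : IsSquare (mult u.1 : F) := by
      by_contra hns
      exact not_comm_sgn D hneg u.2 hns hg (Subgroup.mem_sup_right hker)
    have hSOZ : u.1 ∈ SOG (⇑Q) ⊔ ZG (⇑Q) :=
      (D.signs_eq_one_iff u.1).1 ⟨(D.sgn1_eq_one_iff _).2 hsq, u.2⟩
    obtain ⟨s', z, hs', hz, hu'⟩ := D.SOZ_decomp hSOZ
    rw [Subgroup.mem_subgroupOf, Subgroup.mem_subgroupOf]
    change u.1 ∈ Nn Q ∨ u.1 * (ofO s)⁻¹ ∈ Nn Q
    by_cases hs'Ω : s' ∈ Cfsg.Omega F (⇑Q)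
    · left
      rw [hu', D.mul_scal_mem_iff hz, D.ofO_mem_Nn_of_neg hneg]
      exact hs'Ω
    · right
      have hs'S : spinorSign Q D.h2 s' = -1 :=
        (Int.units_eq_one_or _).resolve_left fun h => hs'Ω ((D.so_mem_omega _ hs').2 h)
      have e : u.1 * (ofO s)⁻¹ = ofO (s' * s⁻¹) * z := by
        have e1 : ofO (s' * s⁻¹) = ofO s' * (ofO s)⁻¹ := rfl
        rw [hu', e1, mul_assoc, mul_assoc, ZG_comm hz]
      rw [e, D.mul_scal_mem_iff hz, D.ofO_mem_Nn_of_neg hneg, D.so_mem_omega, map_mul, map_inv, hs'S, hsS]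
      · decide
      · show (((s'.1 : GL ι F) : Matrix ι ι F) * (((s⁻¹ : ↥(Cfsg.isometryGroup F (⇑Q))).1 : GL ι F) : Matrix ι ι F)).det = 1
        rw [Matrix.det_mul, hs', one_mul]
        have h5 : ((s.1 : GL ι F) : Matrix ι ι F) * (((s⁻¹ : ↥(Cfsg.isometryGroup F (⇑Q))).1 : GL ι F) : Matrix ι ι F) = 1 := by
          have h6 : ((s * s⁻¹ : ↥(Cfsg.isometryGroup F (⇑Q))).1 : GL ι F) = 1 := by
            rw [mul_inv_cancel]
            rfl
          exact congrArg (fun x : GL ι F => (x : Matrix ι ι F)) h6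
        have h7 := congrArg Matrix.det h5
        rw [Matrix.det_mul, hsdet, one_mul, Matrix.det_one] at h7
        exact h7

theorem card_of_not [(Nn Q).Normal] (hneg : (negO : ↥(Cfsg.isometryGroup F (⇑Q))) ∉ Cfsg.Omega F (⇑Q)) :
    Nat.card (↥D.H₂ ⧸ (Nn Q).subgroupOf D.H₂) = 2 := by
  have h1 := D.relIndex_H₂
  rw [D.index_Nn_of_not hneg] at h1
  have h3 : (Nn Q).relIndex D.H₂ = 2 := by omega
  exact h3

/-- The graph involutions when `-1 ∉ Ω`. -/
theorem count_of_not (hneg : (negO : ↥(Cfsg.isometryGroup F (⇑Q))) ∉ Cfsg.Omega F (⇑Q)) (x : MulAut (Cfsg.POmega F (⇑Q))) :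
    Cfsg.splitClassCount (D.H₂.map (simHom (⇑Q))) (Cfsg.Inn (Cfsg.POmega F (⇑Q))) x = 1 ∨
      Cfsg.splitClassCount (D.H₂.map (simHom (⇑Q))) (Cfsg.Inn (Cfsg.POmega F (⇑Q))) x = 2 := by
  haveI hnor := D.Nn_normal
  exact count_le_two_of_card (dH D) ((Nn Q).subgroupOf D.H₂) (card_of_not D hneg) _ _ (dH_range D) (dH_K1 D) (dH_K2 D) x

/-- The graph involutions when `-1 ∉ Ω` and `n` is even. -/
theorem count_of_not_even (hn7 : 7 ≤ Fintype.card ι) (hneg : (negO : ↥(Cfsg.isometryGroup F (⇑Q))) ∉ Cfsg.Omega F (⇑Q))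
    (hev : Even M) (g : SimG Q) (hg : D.sgn2 g ≠ 1) (hgg : simHom (⇑Q) g * simHom (⇑Q) g = 1) :
    Cfsg.splitClassCount (D.H₂.map (simHom (⇑Q))) (Cfsg.Inn (Cfsg.POmega F (⇑Q))) (simHom (⇑Q) g) = 2 := by
  haveI hnor := D.Nn_normal
  have hdet : (g.1 : Matrix ι ι F).det ≠ (mult g : F) ^ M := by
    intro h
    apply hg
    rw [D.sgn2_eq_one_iff, D.ratio_eq_one_iff]
    exact h
  apply count_two_of_card (dH D) ((Nn Q).subgroupOf D.H₂) (card_of_not D hneg) _ _ (dH_range D) (dH_K1 D) (dH_K2 D)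
  intro u hu
  change simHom (⇑Q) g * simHom (⇑Q) u.1 = simHom (⇑Q) u.1 * simHom (⇑Q) g at hu
  have hsq : IsSquare (mult u.1 : F) := by
    by_contra hns
    exact not_comm_of_even D.hQ hn7 D.h2 D.hM hev g hgg hdet u.1 hns hu
  have hSOZ : u.1 ∈ SOG (⇑Q) ⊔ ZG (⇑Q) :=
    (D.signs_eq_one_iff u.1).1 ⟨(D.sgn1_eq_one_iff _).2 hsq, u.2⟩
  rw [D.SOZ_eq_of_not hneg] at hSOZ
  exact hSOZ

end Data

section Models

universe u

variable {F : Type u} [Field F] [Fintype F] {m : ℕ}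

theorem two_of_odd (hodd : Odd (Fintype.card F)) : (2 : F) ≠ 0 := by
  intro h
  haveI : CharP F 2 := Cfsg.Agent.Lib.Classical.OrthAut.MinusD.charP_two_of h
  have h1 := FiniteField.even_card_of_char_two (F := F) (ringChar.eq F 2)
  exact (Nat.not_even_iff_odd.2 hodd) (Nat.even_iff.2 h1)

/-- **The involutory graph automorphisms of `PΩ⁺`.** -/
theorem plus_main (hodd : Odd (Fintype.card F)) (hm : 4 ≤ m) (g : SimG (plusForm m F))
    (hg : ¬ Cfsg.PreservesSingularClasses (⇑(plusForm m F)) (g.1 : Matrix (Fin m ⊕ Fin m) (Fin m ⊕ Fin m) F))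
    (hord : orderOf (simHom (⇑(plusForm m F)) g) = 2) :
    (Cfsg.splitClassCount ((Cfsg.Agent.Lib.Classical.OrthAut.Par.Hp m F).map (simHom (⇑(plusForm m F))))
        (Cfsg.Inn (Cfsg.POmega F (⇑(plusForm m F)))) (simHom (⇑(plusForm m F)) g) = 1 ∨
      Cfsg.splitClassCount ((Cfsg.Agent.Lib.Classical.OrthAut.Par.Hp m F).map (simHom (⇑(plusForm m F))))
        (Cfsg.Inn (Cfsg.POmega F (⇑(plusForm m F)))) (simHom (⇑(plusForm m F)) g) = 2) ∧
    (¬ (Odd m ∧ Fintype.card F % 4 = 3) →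
      Cfsg.splitClassCount ((Cfsg.Agent.Lib.Classical.OrthAut.Par.Hp m F).map (simHom (⇑(plusForm m F))))
        (Cfsg.Inn (Cfsg.POmega F (⇑(plusForm m F)))) (simHom (⇑(plusForm m F)) g) = 2) := by
  have h2 := two_of_odd hodd
  obtain ⟨D⟩ := plusData_exists h2 (m := m) (by omega)
  rw [← H₂_eq_Hp h2 D]
  have hn : 7 ≤ Fintype.card (Fin m ⊕ Fin m) := by
    simp
    omega
  have hg' : D.sgn2 g ≠ 1 := by
    rw [Ne, D.sgn2_eq_one_iff, D.ratio_eq_one_iff, ← plus_pres_iff h2 m g]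
    exact hg
  have hgg : simHom (⇑(plusForm m F)) g * simHom (⇑(plusForm m F)) g = 1 := by
    have h1 := pow_orderOf_eq_one (simHom (⇑(plusForm m F)) g)
    rw [hord] at h1
    rwa [pow_two] at h1
  have hneg := plus_negO hodd m
  by_cases hmem : (negO : ↥(Cfsg.isometryGroup F (⇑(plusForm m F)))) ∈ Cfsg.Omega F (⇑(plusForm m F))
  · have h3 := count_of_neg D hn hmem g hg' hgg
    exact ⟨Or.inr h3, fun _ => h3⟩
  · refine ⟨count_of_not D hmem _, fun h => absurd (hneg.2 h) hmem⟩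

/-- **The involutory graph automorphisms of `PΩ⁻`.** -/
theorem minus_main (hodd : Odd (Fintype.card F)) (hm : 3 ≤ m) (a b : F)
    (hab : ∀ z₁ z₂ : F, z₁ ^ 2 + a * z₁ * z₂ + b * z₂ ^ 2 = 0 → z₁ = 0 ∧ z₂ = 0)
    (γ : MulAut (Cfsg.POmega F (⇑(minusForm m F a b))))
    (hγ : γ ∉ Cfsg.Agent.Lib.Classical.OrthAut.MinusD.inndiagOf m a b (⇑(minusForm m F a b)))
    (hord : orderOf γ = 2) :
    (Cfsg.splitClassCount (Cfsg.Agent.Lib.Classical.OrthAut.MinusD.inndiagOf m a b (⇑(minusForm m F a b)))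
        (Cfsg.Inn (Cfsg.POmega F (⇑(minusForm m F a b)))) γ = 1 ∨
      Cfsg.splitClassCount (Cfsg.Agent.Lib.Classical.OrthAut.MinusD.inndiagOf m a b (⇑(minusForm m F a b)))
        (Cfsg.Inn (Cfsg.POmega F (⇑(minusForm m F a b)))) γ = 2) ∧
    (¬ (Even m ∧ Fintype.card F % 4 = 1) →
      Cfsg.splitClassCount (Cfsg.Agent.Lib.Classical.OrthAut.MinusD.inndiagOf m a b (⇑(minusForm m F a b)))
        (Cfsg.Inn (Cfsg.POmega F (⇑(minusForm m F a b)))) γ = 2) := by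
  classical
  have h2 := two_of_odd hodd
  have hm2 : 2 ≤ m := by omega
  obtain ⟨D⟩ := minusData_exists h2 hm2 a b hab
  have hQ := minusForm_nondegenerate m a b hab
  have hn := Cfsg.Agent.Lib.Classical.OrthAut.MinusF.hn_minus (m := m) hm
  have hH : D.H₂ = Cfsg.Agent.Lib.Classical.OrthAut.MinusD.presS hm2 a b hab := by
    ext g
    rw [MonoidHom.mem_ker, D.sgn2_eq_one_iff, D.ratio_eq_one_iff, Cfsg.Agent.Lib.Classical.OrthAut.MinusD.mem_presS,
      minus_pres_iff h2 m a b hab]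
  rw [Cfsg.Agent.Lib.Classical.OrthAut.MinusD.inndiag_eq hm2 a b hab] at hγ ⊢
  rw [← hH] at hγ ⊢
  obtain ⟨X, hX⟩ := Cfsg.Agent.Lib.Classical.OrthAut.MinusF.exists_Y hm hab γ
  obtain ⟨r, f', hr', hF⟩ : ∃ (r : ℕ) (f' : ℕ+), r.Prime ∧ Fintype.card F = r ^ (f' : ℕ) := by
    obtain ⟨r, hr⟩ := CharP.exists F
    haveI := hr
    obtain ⟨f', hr', hF⟩ := FiniteField.card F r
    exact ⟨r, f', hr', hF⟩
  haveI : Fact r.Prime := ⟨hr'⟩
  have hp2 := Nat.prime_two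
  have hγ2 : γ ^ 2 = 1 := by
    have h1 := pow_orderOf_eq_one γ
    rwa [hord] at h1
  by_cases hσ1 : X.1.right = 1
  swap
  · exfalso
    have hXp : (semiHom (⇑(minusForm m F a b)) X) ^ 2 = 1 := by
      rw [hX]
      exact hγ2
    have hσo : orderOf X.1.right = 2 := Cfsg.Agent.Lib.Classical.OrthAut.FldConj.orderOf_right hQ hn hp2 hXp hσ1
    exact Cfsg.Agent.Lib.Classical.OrthAut.BalG.no_two_semi hF f'.pos hm hab X hσo hXp
  obtain ⟨g, hg⟩ := eq_ofSim_of_right _ (x := X) hσ1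
  have hxg : simHom _ g = γ := by
    rw [← semiHom_ofSim, hg, hX]
  subst hxg
  have hg' : D.sgn2 g ≠ 1 := by
    intro h
    exact hγ ⟨g, h, rfl⟩
  have hgg : simHom (⇑(minusForm m F a b)) g * simHom (⇑(minusForm m F a b)) g = 1 := by
    rwa [pow_two] at hγ2
  have hneg := minus_negO hodd m a b hab
  by_cases hmem : (negO : ↥(Cfsg.isometryGroup F (⇑(minusForm m F a b)))) ∈ Cfsg.Omega F (⇑(minusForm m F a b))
  · have h3 := count_of_neg D hn hmem g hg' hgg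
    exact ⟨Or.inr h3, fun _ => h3⟩
  · refine ⟨count_of_not D hmem _, fun h => ?_⟩
    have hq4 : Fintype.card F % 4 = 1 ∨ Fintype.card F % 4 = 3 := by
      obtain ⟨t, ht⟩ := hodd
      omega
    have hodd' : ¬ Even m := by
      intro he
      rcases hq4 with h5 | h5
      · exact h ⟨he, h5⟩
      · exact hmem (hneg.2 ⟨he, h5⟩)
    have hev : Even (m + 1) := by
      rw [Nat.even_add_one]
      exact hodd'
    exact count_of_not_even D hn hmem hev g hg' hgg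

end Models

end Cfsg.Agent.Lib.Classical.OrthAut.GrB
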