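import Mathlib
import Cfsg.Agent.Lib.Classical.OrthAut.Oct9
import Cfsg.Agent.Lib.Components.FStar

/-!
# Uniqueness of extensions with quotient of order six when the outer automorphism group is `S₄`
-/

set_option autoImplicit false
set_option linter.unusedSectionVars false
set_option linter.unusedSimpArgs false
set_option linter.unusedVariables false
set_option linter.style.haveILetI false

namespace Cfsg.Agent.Lib.Classical.OrthAut.OctUniq

theorem perm4_fix : ∀ a : Equiv.Perm (Fin 4), a * a * a = 1 → a ≠ 1 → ∃ x, a x = x ∧ ∀ y, a y = y → y = x := by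
  decide

theorem card_stab (x : Fin 4) : Nat.card (MulAction.stabilizer (Equiv.Perm (Fin 4)) x) = 6 := by
  have h1 := MulAction.index_stabilizer_of_transitive (Equiv.Perm (Fin 4)) x
  have h2 := Subgroup.card_mul_index (MulAction.stabilizer (Equiv.Perm (Fin 4)) x)
  rw [h1] at h2
  have h3 : Nat.card (Equiv.Perm (Fin 4)) = 24 := by
    simp [Nat.card_eq_fintype_card, Fintype.card_perm, Nat.factorial]
  have h4 : Nat.card (Fin 4) = 4 := by simp
  rw [h3, h4] at h2
  omega

/-- A subgroup of order six of the symmetric group of degree four is a point stabiliser. -/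
theorem stab_of_card_six (H : Subgroup (Equiv.Perm (Fin 4))) (hH : Nat.card H = 6) : ∃ x : Fin 4, H = MulAction.stabilizer (Equiv.Perm (Fin 4)) x := by
  haveI : Fact (Nat.Prime 3) := ⟨by norm_num⟩
  obtain ⟨a, ha⟩ := exists_prime_orderOf_dvd_card' (G := H) 3 (by rw [hH]; norm_num)
  have ha3 : a ^ 3 = 1 := by
    rw [← ha]
    exact pow_orderOf_eq_one a
  have ha1 : a ≠ 1 := by
    intro h
    rw [h, orderOf_one] at ha
    omega
  have ha3' : a.1 * a.1 * a.1 = 1 := by
    have := congrArg Subtype.val ha3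
    simpa [pow_succ] using this
  have ha1' : a.1 ≠ 1 := fun h => ha1 (Subtype.ext h)
  obtain ⟨x, hx, hxu⟩ := perm4_fix a.1 ha3' ha1'
  have hcardC : Nat.card (Subgroup.zpowers a) = 3 := by
    rw [Nat.card_zpowers, ha]
  have hidx : (Subgroup.zpowers a).index = 2 := by
    have h1 := Subgroup.card_mul_index (Subgroup.zpowers a)
    rw [hcardC, hH] at h1
    omega
  haveI hnorm : (Subgroup.zpowers a).Normal := Subgroup.normal_of_index_eq_two hidx
  have hfix : ∀ h : H, h.1 x = x := by
    intro h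
    have h1 := hnorm.conj_mem a (Subgroup.mem_zpowers a) h
    have hfin : IsOfFinOrder a := isOfFinOrder_of_finite a
    obtain ⟨k, hk⟩ := (hfin.mem_powers_iff_mem_zpowers).2 h1
    have hk' : a ^ k = h * a * h⁻¹ := hk
    -- the fixed points
    have h2 : (a ^ k).1 (h.1 x) = h.1 x := by
      rw [hk']
      show h.1 (a.1 (h.1⁻¹ (h.1 x))) = h.1 x
      simp [hx]
    have hk3 : k % 3 = 0 ∨ k % 3 = 1 ∨ k % 3 = 2 := by omega
    have hkm : a ^ k = a ^ (k % 3) := pow_eq_pow_mod k ha3
    rw [hkm] at h2 hk'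
    rcases hk3 with h3 | h3 | h3
    · exfalso
      rw [h3, pow_zero] at hk'
      apply ha1
      have h4 : a = h⁻¹ * 1 * h := by
        rw [hk']
        group
      rw [h4]
      group
    · rw [h3, pow_one] at h2
      exact hxu _ h2
    · rw [h3] at h2
      have h5 : a.1 (a.1 (h.1 x)) = h.1 x := by
        simpa [pow_two] using h2
      apply hxu
      have h6 := congrArg a.1 h5
      have h7 : a.1 (a.1 (a.1 (h.1 x))) = h.1 x := by
        have h8 := congrArg (fun p : Equiv.Perm (Fin 4) => p (h.1 x)) ha3'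
        simpa using h8
      rw [h7] at h6
      exact h6.symm
  refine ⟨x, ?_⟩
  apply Subgroup.eq_of_le_of_card_ge
  · intro g hg
    exact hfix ⟨g, hg⟩
  · rw [hH, card_stab]

/-- Subgroups of order six of the symmetric group of degree four are conjugate. -/
theorem conj_of_card_six (H₁ H₂ : Subgroup (Equiv.Perm (Fin 4))) (h₁ : Nat.card H₁ = 6) (h₂ : Nat.card H₂ = 6) :
    ∃ g : Equiv.Perm (Fin 4), H₂ = H₁.map (MulAut.conj g).toMonoidHom := by
  obtain ⟨x, rfl⟩ := stab_of_card_six H₁ h₁
  obtain ⟨y, rfl⟩ := stab_of_card_six H₂ h₂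
  refine ⟨Equiv.swap x y, ?_⟩
  rw [← MulAction.stabilizer_smul_eq_stabilizer_map_conj]
  congr 1
  simp

theorem card_of_le {A : Type*} [Group A] [Finite A] (N K : Subgroup A) [N.Normal] (h : N ≤ K) :
    Nat.card K = Nat.card (K.map (QuotientGroup.mk' N)) * Nat.card N := by
  let ψ : K →* A ⧸ N := (QuotientGroup.mk' N).comp K.subtype
  have hk : ψ.ker = N.subgroupOf K := by
    ext x
    rw [MonoidHom.mem_ker, Subgroup.mem_subgroupOf]
    exact QuotientGroup.eq_one_iff _
  have hr : ψ.range = K.map (QuotientGroup.mk' N) := by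
    rw [MonoidHom.range_comp, Subgroup.range_subtype]
  have h1 := Subgroup.card_mul_index ψ.ker
  rw [Subgroup.index_ker, hk, hr, Nat.card_congr (Subgroup.subgroupOfEquivOfLe h).toEquiv] at h1
  rw [← h1, mul_comm]

/-- **Uniqueness of the extensions**. -/
theorem unique_of_out_S4 {S : Type*} [Group S] [Finite S] (e : Cfsg.Out S ≃* Equiv.Perm (Fin 4)) (hI : Nat.card (Cfsg.Inn S) = Nat.card S) {G G' : Type*} [Group G] [Finite G]
    [Group G'] [Finite G'] (φ : G →* MulAut S) (φ' : G' →* MulAut S) (hφ : Function.Injective φ) (hφ' : Function.Injective φ')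
    (hr : Cfsg.Inn S ≤ φ.range) (hr' : Cfsg.Inn S ≤ φ'.range) (hc : Nat.card G = 6 * Nat.card S) (hc' : Nat.card G' = 6 * Nat.card S) :
    Nonempty (G ≃* G') := by
  set p := QuotientGroup.mk' (Cfsg.Inn S) with hp
  have hS : 0 < Nat.card S := Nat.card_pos
  have hcard : ∀ {K : Subgroup (MulAut S)}, Cfsg.Inn S ≤ K → Nat.card K = 6 * Nat.card S → Nat.card ((K.map p).map e.toMonoidHom) = 6 := by
    intro K hK hK6
    have h1 := card_of_le (Cfsg.Inn S) K hK
    rw [hK6, hI] at h1
    have h2 : Nat.card (K.map p) = 6 := (Nat.eq_of_mul_eq_mul_right hS h1).symm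
    rw [← h2]
    exact (Nat.card_congr ((K.map p).equivMapOfInjective e.toMonoidHom e.injective).toEquiv).symm
  have hG : Nat.card φ.range = 6 * Nat.card S := by
    rw [← hc]
    exact Nat.card_congr (MonoidHom.ofInjective hφ).toEquiv.symm
  have hG' : Nat.card φ'.range = 6 * Nat.card S := by
    rw [← hc']
    exact Nat.card_congr (MonoidHom.ofInjective hφ').toEquiv.symm
  obtain ⟨g, hg⟩ := conj_of_card_six _ _ (hcard hr hG) (hcard hr' hG')
  obtain ⟨α', hα'⟩ := e.surjective g
  obtain ⟨α, rfl⟩ := QuotientGroup.mk_surjective α'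
  have hmem : ∀ {K : Subgroup (MulAut S)}, Cfsg.Inn S ≤ K → ∀ x, x ∈ K ↔ e (p x) ∈ (K.map p).map e.toMonoidHom := by
    intro K hK x
    constructor
    · intro hx
      exact ⟨p x, ⟨x, hx, rfl⟩, rfl⟩
    · rintro ⟨_, ⟨y, hy, rfl⟩, he⟩
      have h1 : p y = p x := e.injective he
      have h2 : y⁻¹ * x ∈ Cfsg.Inn S := QuotientGroup.eq.1 h1
      have h3 := K.mul_mem hy (hK h2)
      rwa [mul_inv_cancel_left] at h3
  have hconj : φ'.range = φ.range.map (MulAut.conj α).toMonoidHom := by
    ext x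
    have e4 : (MulAut.conj g).symm (e (p x)) = e (p ((MulAut.conj α).symm x)) := by
      rw [MulAut.conj_symm_apply, MulAut.conj_symm_apply, ← hα', map_mul, map_mul, map_mul, map_mul, map_inv, map_inv]
      rfl
    have step1 : ∀ (H : Subgroup (Equiv.Perm (Fin 4))) (y : Equiv.Perm (Fin 4)), y ∈ H.map (MulAut.conj g).toMonoidHom ↔ (MulAut.conj g).symm y ∈ H :=
      fun H y => Subgroup.mem_map_equiv
    have step2 : x ∈ φ.range.map (MulAut.conj α).toMonoidHom ↔ (MulAut.conj α).symm x ∈ φ.range := Subgroup.mem_map_equiv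
    rw [hmem hr', hg, step1, step2, hmem hr ((MulAut.conj α).symm x), e4]
  have e1 : G ≃* φ.range := MonoidHom.ofInjective hφ
  have e2 : G' ≃* φ'.range := MonoidHom.ofInjective hφ'
  have e3 : φ.range ≃* φ.range.map (MulAut.conj α).toMonoidHom :=
    φ.range.equivMapOfInjective _ (MulAut.conj α).injective
  exact ⟨e1.trans (e3.trans ((MulEquiv.subgroupCongr hconj.symm).trans e2.symm))⟩

/-- The embedding of a group in the automorphism group of its generalised Fitting subgroup. -/
theorem exists_embed {S : Type*} [Group S] [Finite S] (hZ : Subgroup.center S = ⊥) {G : Type*} [Group G] [Finite G]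
    (hF : Nonempty (↥(Cfsg.generalizedFittingSubgroup G) ≃* S)) [hn : (Cfsg.generalizedFittingSubgroup G).Normal]
    (hq : Nonempty (G ⧸ Cfsg.generalizedFittingSubgroup G ≃* Equiv.Perm (Fin 3))) :
    ∃ φ : G →* MulAut S, Function.Injective φ ∧ Cfsg.Inn S ≤ φ.range ∧ Nat.card G = 6 * Nat.card S := by
  obtain ⟨e₀⟩ := hF
  obtain ⟨e₁⟩ := hq
  set Fs := Cfsg.generalizedFittingSubgroup G with hFs
  let φ : G →* MulAut S := (MulAut.congr e₀).toMonoidHom.comp (MulAut.conjNormal (H := Fs))
  have hφ : ∀ (g : G) (x : Fs), φ g (e₀ x) = e₀ ⟨g * x.1 * g⁻¹, hn.conj_mem x.1 x.2 g⟩ := by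
    intro g x
    show e₀ ((MulAut.conjNormal g) (e₀.symm (e₀ x))) = _
    rw [e₀.symm_apply_apply]
    rfl
  refine ⟨φ, ?_, ?_, ?_⟩
  · rw [injective_iff_map_eq_one]
    intro g hg
    have h1 : g ∈ Subgroup.centralizer (Fs : Set G) := by
      rw [Subgroup.mem_centralizer_iff]
      intro x hx
      have h2 := hφ g ⟨x, hx⟩
      rw [hg] at h2
      have h3 := e₀.injective h2
      have h4 : x = g * x * g⁻¹ := congrArg Subtype.val h3
      calc x * g = (g * x * g⁻¹) * g := by rw [← h4]
        _ = g * x := by group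
    have h2 : g ∈ Fs := Cfsg.Agent.Lib.Components.FStar.centralizer_generalizedFitting_le h1
    have h3 : e₀ ⟨g, h2⟩ ∈ Subgroup.center S := by
      rw [Subgroup.mem_center_iff]
      intro y
      obtain ⟨y, rfl⟩ := e₀.surjective y
      rw [← map_mul, ← map_mul]
      congr 1
      apply Subtype.ext
      exact (Subgroup.mem_centralizer_iff.1 h1 y.1 y.2)
    rw [hZ, Subgroup.mem_bot, map_eq_one_iff e₀ e₀.injective] at h3
    exact congrArg Subtype.val h3
  · rintro _ ⟨s, rfl⟩
    obtain ⟨s, rfl⟩ := e₀.surjective s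
    refine ⟨s.1, ?_⟩
    apply MulEquiv.ext
    intro y
    obtain ⟨y, rfl⟩ := e₀.surjective y
    rw [hφ, MulAut.conj_apply, ← map_inv, ← map_mul, ← map_mul]
    rfl
  · have h1 := Subgroup.card_eq_card_quotient_mul_card_subgroup Fs
    rw [Nat.card_congr e₁.toEquiv, Nat.card_congr e₀.toEquiv] at h1
    rw [h1]
    congr 1
    simp [Nat.card_eq_fintype_card, Fintype.card_perm, Nat.factorial]

end Cfsg.Agent.Lib.Classical.OrthAut.OctUniq
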